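import Cfsg.Agent.Lib.Compute.O73Cl.Group

/-!
# `Ω₇(3)`: the elements of a Sylow 3-subgroup
-/

set_option autoImplicit false
set_option maxRecDepth 100000

namespace Cfsg.Agent.Lib.Compute.O73Cl

open Cfsg.Agent.Lib.Compute.PermCert Cfsg.Agent.Lib.Compute.LinOrbit Cfsg.Agent.Lib.Compute.O73
open Cfsg.Agent.Lib.Compute.ToddCoxeterCore Cfsg.Agent.Lib.Compute.ToddCoxeterPresented
open Cfsg.Agent.Lib.Compute.TC

/-! ### The letters -/

theorem beq_ne {a b : ℕ} (h : a ≠ b) : Nat.beq a b = false := by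
  cases h' : Nat.beq a b with
  | false => rfl
  | true => exact absurd (Nat.eq_of_beq_eq_true h') h

/-- A letter. -/
def Le (k : ℕ) : Elt := letE.getD k peId

theorem letE_valid : (peId :: letE).all (validB 10 1023 702) = true := by decide +kernel

theorem Le_valid (k : ℕ) : validB 10 1023 702 (Le k) = true := by
  have h := List.all_eq_true.mp letE_valid
  unfold Le
  by_cases hj : k < letE.length
  · rw [List.getD_eq_getElem _ _ hj]
    exact h _ (List.mem_cons_of_mem _ (List.getElem_mem hj))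
  · rw [List.getD_eq_default _ _ (by omega)]
    exact h _ List.mem_cons_self

/-- A letter, as an element. -/
noncomputable def Lg (k : ℕ) : G := wordEl ge (lwL.getD k [])

theorem lw_chk : allB (fun k => (lwL.getD k []).all (fun x => Nat.blt x 8) &&
    allB (fun y => Nat.beq (get 10 1023 (Le k).f y) (wordPt evP (lwL.getD k []) y)) 702) 12 = true := by decide +kernel

theorem lw_lt {k : ℕ} (hk : k < 12) : ∀ x ∈ lwL.getD k [], x < 8 := by
  have h := (allB_iff _ _).mp lw_chk k hk
  simp only [Bool.and_eq_true, List.all_eq_true, Nat.blt_eq] at h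
  exact h.1

theorem word_congr {A : Type} [Group A] {el el' : ℕ → A} (a : List ℕ) (h : ∀ x ∈ a, el x = el' x) :
    wordEl el a = wordEl el' a := by
  induction a with
  | nil => rfl
  | cons x u ih =>
    rw [wordEl_cons, wordEl_cons, ih (fun y hy => h y (by simp [hy])), h x (by simp)]

theorem rho_word (a : List ℕ) (ha : ∀ x ∈ a, x < 8) : rho (wordEl ge a) = wordEl elP a := by
  rw [map_word]
  exact word_congr a (fun x hx => rho_ge (ha x hx))

theorem pi_word (a : List ℕ) (ha : ∀ x ∈ a, x < 8) : pi' (wordEl ge a) = wordEl elQ a := by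
  rw [map_word]
  exact word_congr a (fun x hx => pi_ge (ha x hx))

theorem rho_Lg {k : ℕ} (hk : k < 12) : rho (Lg k) = permOf 10 1023 702 (Le k) := by
  ext i
  rw [Lg, rho_word _ (lw_lt hk), wordEl_apply (m := 8) (ev := evP) (fun j _ i => evP_eq j i) _ (lw_lt hk) i,
    permOf_apply (Le_valid k)]
  have h := (allB_iff _ _).mp lw_chk k hk
  simp only [Bool.and_eq_true] at h
  exact (Nat.eq_of_beq_eq_true ((allB_iff _ _).mp h.2 i i.2)).symm

/-- The action of a power of a letter. -/
def actL (k e y : ℕ) : ℕ :=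
  bif Nat.beq e 0 then y else bif Nat.beq e 1 then get 10 1023 (Le k).f y else get 10 1023 (Le k).g y

/-- A power of a letter. -/
noncomputable def xE (k e : ℕ) : G := bif Nat.beq e 0 then 1 else bif Nat.beq e 1 then Lg k else (Lg k)⁻¹

theorem rho_xE {k : ℕ} (hk : k < 12) (e : ℕ) (y : Fin 702) : ((rho (xE k e) y : Fin 702) : ℕ) = actL k e y := by
  unfold xE actL
  by_cases h0 : e = 0
  · subst h0
    simp
  · by_cases h1 : e = 1
    · subst h1
      show ((rho (Lg k) y : Fin 702) : ℕ) = get 10 1023 (Le k).f y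
      rw [rho_Lg hk, permOf_apply (Le_valid k)]
    · have e0 : Nat.beq e 0 = false := beq_ne h0
      have e1 : Nat.beq e 1 = false := beq_ne h1
      rw [e0, e1]
      simp only [cond_false]
      rw [map_inv, rho_Lg hk, permOf_symm_apply (Le_valid k)]

/-- The action of a product. -/
def evL : ℕ → List ℕ → ℕ → ℕ
  | _, [], y => y
  | k, e :: es, y => actL k e (evL (k + 1) es y)

/-- A product. -/
noncomputable def xL : ℕ → List ℕ → G
  | _, [] => 1
  | k, e :: es => xE k e * xL (k + 1) es

theorem rho_xL {k : ℕ} {es : List ℕ} (h : k + es.length ≤ 12) (y : Fin 702) :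
    ((rho (xL k es) y : Fin 702) : ℕ) = evL k es y := by
  induction es generalizing k with
  | nil =>
    simp [xL, evL]
  | cons e es ih =>
    simp only [List.length_cons] at h
    show ((rho (xE k e * xL (k + 1) es) y : Fin 702) : ℕ) = actL k e (evL (k + 1) es y)
    rw [map_mul, Equiv.Perm.mul_apply, rho_xE (by omega), ih (by omega)]

/-- The digits. -/
def dig : ℕ → ℕ → List ℕ
  | 0, _ => []
  | m + 1, n => n % 3 :: dig m (n / 3)

theorem dig_length (m n : ℕ) : (dig m n).length = m := by
  induction m generalizing n with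
  | zero => rfl
  | succ m ih => simp [dig, ih]

theorem exists_dig (m : ℕ) (es : List ℕ) (h1 : es.length = m) (h2 : ∀ e ∈ es, e < 3) :
    ∃ n, n < 3 ^ m ∧ dig m n = es := by
  induction m generalizing es with
  | zero =>
    refine ⟨0, by norm_num, ?_⟩
    rw [List.length_eq_zero_iff.mp h1]
    rfl
  | succ m ih =>
    obtain ⟨e, t, rfl⟩ := List.exists_cons_of_length_eq_add_one h1
    have he : e < 3 := h2 e (by simp)
    obtain ⟨n, hn, hd⟩ := ih t (by simpa using h1) (fun x hx => h2 x (by simp [hx]))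
    refine ⟨e + 3 * n, by rw [pow_succ]; omega, ?_⟩
    have e1 : (e + 3 * n) % 3 = e := by omega
    have e2 : (e + 3 * n) / 3 = n := by omega
    simp [dig, e1, e2, hd]

/-- An element of the Sylow subgroup. -/
noncomputable def Xn (n : ℕ) : G := xL 0 (dig 9 n)

theorem rho_Xn (n : ℕ) (y : Fin 702) : ((rho (Xn n) y : Fin 702) : ℕ) = evL 0 (dig 9 n) y :=
  rho_xL (by rw [dig_length]; norm_num) y

/-! ### Fast evaluation -/

/-- A look-up in a table of a letter. -/
def actT (T d y : ℕ) : ℕ := Nat.land (Nat.shiftRight T (Nat.mul 10 (Nat.add y (Nat.mul 702 d)))) 1023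

/-- A power of a letter, from the table. -/
def actD (k d y : ℕ) : ℕ := actT (tL.getD k 0) d y

theorem aL_chk : allB (fun k => allB (fun y => Nat.beq (actD k 0 y) y && Nat.beq (actD k 1 y) (get 10 1023 (Le k).f y) &&
    Nat.beq (actD k 2 y) (get 10 1023 (Le k).g y)) 702) 12 = true := by decide +kernel

theorem rho_xD {k d : ℕ} (hk : k < 12) (hd : d < 3) (y : Fin 702) :
    ((rho (xE k d) y : Fin 702) : ℕ) = actD k d y := by
  rw [rho_xE hk]
  have h := (allB_iff _ _).mp ((allB_iff _ _).mp aL_chk k hk) y y.2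
  simp only [Bool.and_eq_true] at h
  have h0 : actD k 0 y = y := Nat.eq_of_beq_eq_true h.1.1
  have h1 : actD k 1 y = get 10 1023 (Le k).f y := Nat.eq_of_beq_eq_true h.1.2
  have h2 : actD k 2 y = get 10 1023 (Le k).g y := Nat.eq_of_beq_eq_true h.2
  have hc : d = 0 ∨ d = 1 ∨ d = 2 := by omega
  rcases hc with rfl | rfl | rfl
  · exact h0.symm
  · exact h1.symm
  · exact h2.symm

/-- The action of an element of the Sylow subgroup. -/
def evX (n y : ℕ) : ℕ :=
  actT t0 (Nat.mod n 3) (actT t1 (Nat.mod (Nat.div n 3) 3) (actT t2 (Nat.mod (Nat.div n 9) 3)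
    (actT t3 (Nat.mod (Nat.div n 27) 3) (actT t4 (Nat.mod (Nat.div n 81) 3) (actT t5 (Nat.mod (Nat.div n 243) 3)
    (actT t6 (Nat.mod (Nat.div n 729) 3) (actT t7 (Nat.mod (Nat.div n 2187) 3) (actT t8 (Nat.mod (Nat.div n 6561) 3) y))))))))

theorem dig_nine (n : ℕ) : dig 9 n = [Nat.mod n 3, Nat.mod (Nat.div n 3) 3, Nat.mod (Nat.div n 9) 3,
    Nat.mod (Nat.div n 27) 3, Nat.mod (Nat.div n 81) 3, Nat.mod (Nat.div n 243) 3,
    Nat.mod (Nat.div n 729) 3, Nat.mod (Nat.div n 2187) 3, Nat.mod (Nat.div n 6561) 3] := by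
  have e : ∀ a b : ℕ, a / 3 / b = a / (3 * b) := fun a b => Nat.div_div_eq_div_mul a 3 b
  have e2 : ∀ a : ℕ, Nat.mod a 3 = a % 3 := fun _ => rfl
  have e3 : ∀ a b : ℕ, Nat.div a b = a / b := fun _ _ => rfl
  simp only [e2, e3]
  simp only [dig, Nat.div_div_eq_div_mul]

theorem mod3_lt (a : ℕ) : Nat.mod a 3 < 3 := Nat.mod_lt a (by norm_num)

theorem rho_Xn_fast (n : ℕ) (y : Fin 702) : ((rho (Xn n) y : Fin 702) : ℕ) = evX n y := by
  unfold Xn
  rw [dig_nine]
  simp only [xL, map_mul, Equiv.Perm.mul_apply, map_one, Equiv.Perm.one_apply]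
  unfold evX
  rw [rho_xD (by norm_num) (mod3_lt _), rho_xD (by norm_num) (mod3_lt _), rho_xD (by norm_num) (mod3_lt _),
    rho_xD (by norm_num) (mod3_lt _), rho_xD (by norm_num) (mod3_lt _), rho_xD (by norm_num) (mod3_lt _),
    rho_xD (by norm_num) (mod3_lt _), rho_xD (by norm_num) (mod3_lt _), rho_xD (by norm_num) (mod3_lt _)]
  rfl

/-! ### The table -/

/-- An entry of the table. -/
def entry (n : ℕ) : ℕ := get 28 268435455 (tabL.getD (Nat.div n 1024) 0) (Nat.mod n 1024)
/-- The kind of an entry. -/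
def kindE (e : ℕ) : ℕ := Nat.mod e 4
/-- The first field. -/
def aE (e : ℕ) : ℕ := Nat.mod (Nat.div e 4) 32
/-- The parent. -/
def pE (e : ℕ) : ℕ := Nat.mod (Nat.div e 128) 32768
/-- The rank. -/
def rE (e : ℕ) : ℕ := Nat.div e 4194304
/-- The rank, with the roots in rank zero. -/
def rankOf (e : ℕ) : ℕ := bif Nat.beq (kindE e) 1 then 0 else rE e
/-- The opposite letter. -/
def flipC (c : ℕ) : ℕ := bif Nat.beq (c % 2) 0 then c + 1 else c - 1
/-- The action of a signed letter. -/
def actC (c y : ℕ) : ℕ := actD (c / 2) (c % 2 + 1) y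
/-- A signed letter. -/
noncomputable def gC (c : ℕ) : G := xE (c / 2) (c % 2 + 1)

theorem gC_inv (c : ℕ) : (gC c)⁻¹ = gC (flipC c) := by
  unfold gC flipC
  rcases Nat.mod_two_eq_zero_or_one c with h | h
  · have e : Nat.beq (c % 2) 0 = true := by rw [h]; rfl
    rw [e]
    simp only [cond_true]
    have h1 : (c + 1) / 2 = c / 2 := by omega
    have h2 : (c + 1) % 2 = 1 := by omega
    rw [h1, h2, h]
    rfl
  · have e : Nat.beq (c % 2) 0 = false := by rw [h]; rfl
    rw [e]
    simp only [cond_false]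
    have h1 : (c - 1) / 2 = c / 2 := by omega
    have h2 : (c - 1) % 2 = 0 := by omega
    rw [h1, h2, h]
    show (Lg (c / 2))⁻¹⁻¹ = Lg (c / 2)
    exact inv_inv _

/-- The check of a point. -/
def chkPt (c n p y : ℕ) : Bool := Nat.beq (actC c (evX n (actC (flipC c) y))) (evX p y)

/-- The check of an element with a parent. -/
def chkChild (e n : ℕ) : Bool :=
  let c := aE e
  let p := pE e
  let ep := entry p
  Nat.blt c 24 && Nat.blt p 19683 && Nat.blt (rankOf ep) (rE e) && (Nat.beq (kindE ep) 1 || Nat.beq (kindE ep) 2) &&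
    chkPt c n p 0 && chkPt c n p 1 && chkPt c n p 2 && chkPt c n p 3 && chkPt c n p 9 && chkPt c n p 54 &&
    chkPt c n p 216

/-- The check of an element. -/
def chk (n : ℕ) : Bool :=
  let e := entry n
  let k := kindE e
  bif Nat.beq k 0 then
    (let b := baseL.getD (aE e) 0
     Nat.blt b 702 && !(Nat.beq (evX n (evX n (evX n b))) b))
  else bif Nat.beq k 1 then Nat.beq (rootsL.getD (aE e) 0) n && Nat.blt (aE e) 7
  else bif Nat.beq k 2 then chkChild e n
  else Nat.beq n 0

/-- The length of a chunk. -/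
def lenC (q : ℕ) : ℕ := bif Nat.blt q 19 then 1024 else 227

/-- The check of a chunk. -/
def chkC (q : ℕ) : Bool := allB (fun i => chk (q * 1024 + i)) (lenC q)

theorem chkC0 : chkC 0 = true := by decide +kernel
theorem chkC1 : chkC 1 = true := by decide +kernel
theorem chkC2 : chkC 2 = true := by decide +kernel
theorem chkC3 : chkC 3 = true := by decide +kernel
theorem chkC4 : chkC 4 = true := by decide +kernel
theorem chkC5 : chkC 5 = true := by decide +kernel
theorem chkC6 : chkC 6 = true := by decide +kernel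
theorem chkC7 : chkC 7 = true := by decide +kernel
theorem chkC8 : chkC 8 = true := by decide +kernel
theorem chkC9 : chkC 9 = true := by decide +kernel
theorem chkC10 : chkC 10 = true := by decide +kernel
theorem chkC11 : chkC 11 = true := by decide +kernel
theorem chkC12 : chkC 12 = true := by decide +kernel
theorem chkC13 : chkC 13 = true := by decide +kernel
theorem chkC14 : chkC 14 = true := by decide +kernel
theorem chkC15 : chkC 15 = true := by decide +kernel
theorem chkC16 : chkC 16 = true := by decide +kernel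
theorem chkC17 : chkC 17 = true := by decide +kernel
theorem chkC18 : chkC 18 = true := by decide +kernel
theorem chkC19 : chkC 19 = true := by decide +kernel

theorem chk_chunks (q : ℕ) (hq : q < 20) : chkC q = true := by
  interval_cases q
  exacts [chkC0, chkC1, chkC2, chkC3, chkC4, chkC5, chkC6, chkC7, chkC8, chkC9, chkC10, chkC11, chkC12, chkC13, chkC14,
    chkC15, chkC16, chkC17, chkC18, chkC19]

theorem chk_all : allB chk 19683 = true := by
  rw [allB_iff]
  intro n hn
  have hq : n / 1024 < 20 := by omega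
  have hr : n % 1024 < lenC (n / 1024) := by
    unfold lenC
    by_cases h : n / 1024 < 19
    · have e : Nat.blt (n / 1024) 19 = true := by simpa [Nat.blt_eq] using h
      rw [e]
      show n % 1024 < 1024
      omega
    · have e : Nat.blt (n / 1024) 19 = false := by
        cases h' : Nat.blt (n / 1024) 19 with
        | false => rfl
        | true =>
          exact absurd (by simpa [Nat.blt_eq] using h') h
      rw [e]
      show n % 1024 < 227
      omega
  have h := (allB_iff _ _).mp (chk_chunks _ hq) _ hr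
  have e : n / 1024 * 1024 + n % 1024 = n := by omega
  simp only [e] at h
  exact h

/-! ### The subgroup -/

/-- The commutator words. -/
def pcE (k j : ℕ) : List ℕ := pcL.getD (k * 9 + j) []

theorem pc_chk : allB (fun k => allB (fun j => (!(Nat.blt k j)) || (Nat.beq (pcE k j).length (8 - k) &&
    (pcE k j).all (fun e => Nat.blt e 3) &&
    baseL.all (fun b => Nat.beq (actL k 1 (actL j 1 (actL k 2 b))) (evL (k + 1) (pcE k j) b)))) 9) 9 = true := by
  decide +kernel

theorem cube_chk : allB (fun k => baseL.all (fun b => Nat.beq (actL k 1 (actL k 1 (actL k 1 b))) b)) 9 = true := by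
  decide +kernel

theorem xE_one (k : ℕ) : xE k 1 = Lg k := rfl

theorem xE_two (k : ℕ) : xE k 2 = (Lg k)⁻¹ := rfl

theorem xE_zero (k : ℕ) : xE k 0 = 1 := rfl

theorem Lg_cube {k : ℕ} (hk : k < 9) : Lg k * Lg k * Lg k = 1 := by
  apply G_ext
  intro y hy
  apply Fin.ext
  rw [map_mul, map_mul, Equiv.Perm.mul_apply, Equiv.Perm.mul_apply, map_one]
  simp only [← xE_one]
  rw [rho_xE (by omega), rho_xE (by omega), rho_xE (by omega)]
  have h := List.all_eq_true.mp ((allB_iff _ _).mp cube_chk k hk) y hy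
  exact Nat.eq_of_beq_eq_true h

theorem pc_rel {k j : ℕ} (hk : k < j) (hj : j < 9) : Lg k * Lg j * (Lg k)⁻¹ = xL (k + 1) (pcE k j) ∧
    (pcE k j).length = 8 - k ∧ ∀ e ∈ pcE k j, e < 3 := by
  have h := (allB_iff _ _).mp ((allB_iff _ _).mp pc_chk k (by omega)) j hj
  have hb : Nat.blt k j = true := by simpa [Nat.blt_eq] using hk
  rw [hb] at h
  simp only [Bool.not_true, Bool.false_or, Bool.and_eq_true, List.all_eq_true, Nat.blt_eq] at h
  obtain ⟨⟨h1, h2⟩, h3⟩ := h
  have hlen : (pcE k j).length = 8 - k := Nat.eq_of_beq_eq_true h1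
  refine ⟨?_, hlen, h2⟩
  apply G_ext
  intro y hy
  apply Fin.ext
  rw [map_mul, map_mul, Equiv.Perm.mul_apply, Equiv.Perm.mul_apply,
    show (Lg k)⁻¹ = xE k 2 from rfl, show Lg k = xE k 1 from rfl, show Lg j = xE j 1 from rfl]
  rw [rho_xE (by omega), rho_xE (by omega), rho_xE (by omega), rho_xL (by rw [hlen]; omega)]
  exact Nat.eq_of_beq_eq_true (h3 y hy)

/-- The groups of the chain. -/
noncomputable def Pk (k : ℕ) : Subgroup G := Subgroup.closure (Lg '' {j | k ≤ j ∧ j < 9})

theorem Pk_mono (k : ℕ) : Pk (k + 1) ≤ Pk k := by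
  apply Subgroup.closure_mono
  rintro _ ⟨j, ⟨h1, h2⟩, rfl⟩
  exact ⟨j, ⟨by omega, h2⟩, rfl⟩

theorem Lg_mem {k j : ℕ} (h1 : k ≤ j) (h2 : j < 9) : Lg j ∈ Pk k :=
  Subgroup.subset_closure ⟨j, ⟨h1, h2⟩, rfl⟩

theorem xE_mem {k : ℕ} (e : ℕ) (hk : k < 9) : xE k e ∈ Pk k := by
  unfold xE
  by_cases h0 : e = 0
  · subst h0
    exact Subgroup.one_mem _
  · by_cases h1 : e = 1
    · subst h1
      exact Lg_mem le_rfl hk
    · have e0 : Nat.beq e 0 = false := beq_ne h0
      have e1 : Nat.beq e 1 = false := beq_ne h1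
      rw [e0, e1]
      exact Subgroup.inv_mem _ (Lg_mem le_rfl hk)

theorem xL_mem {k : ℕ} {es : List ℕ} (h : k + es.length ≤ 9) : xL k es ∈ Pk k := by
  induction es generalizing k with
  | nil => exact Subgroup.one_mem _
  | cons e es ih =>
    simp only [List.length_cons] at h
    exact Subgroup.mul_mem _ (xE_mem e (by omega)) (Pk_mono k (ih (by omega)))

/-- An element of a group generated by a normal subgroup and an element of order three. -/
theorem mem_form {A : Type} [Group A] (N : Subgroup A) (a : A) (h3 : a * a * a = 1) (hN : ∀ n ∈ N, a * n * a⁻¹ ∈ N)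
    {g : A} (hg : g ∈ Subgroup.closure (insert a (N : Set A))) :
    g ∈ N ∨ (∃ n ∈ N, g = a * n) ∨ (∃ n ∈ N, g = a⁻¹ * n) := by
  have hai : a⁻¹ = a * a := by
    rw [inv_eq_iff_mul_eq_one, mul_assoc] at *
    exact h3
  have hN' : ∀ n ∈ N, a⁻¹ * n * a ∈ N := by
    intro n hn
    have h1 := hN _ (hN n hn)
    have e : a * (a * n * a⁻¹) * a⁻¹ = a⁻¹ * n * a := by
      have e2 : a⁻¹ * a⁻¹ = a := by
        rw [hai]
        calc a * a * (a * a) = (a * a * a) * a := by group
          _ = a := by rw [h3, one_mul]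
      calc a * (a * n * a⁻¹) * a⁻¹ = (a * a) * n * (a⁻¹ * a⁻¹) := by group
        _ = a⁻¹ * n * a := by rw [← hai, e2]
    rwa [e] at h1
  have hcomm : ∀ n ∈ N, ∃ m ∈ N, n * a = a * m := fun n hn => ⟨_, hN' n hn, by group⟩
  have hcomm' : ∀ n ∈ N, ∃ m ∈ N, n * a⁻¹ = a⁻¹ * m := fun n hn => ⟨_, hN n hn, by group⟩
  have haa : a * a = a⁻¹ := hai.symm
  have hii : a⁻¹ * a⁻¹ = a := by
    rw [hai]
    calc a * a * (a * a) = (a * a * a) * a := by group
      _ = a := by rw [h3, one_mul]
  induction hg using Subgroup.closure_induction with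
  | mem x hx =>
    rcases hx with rfl | hx
    · exact Or.inr (Or.inl ⟨1, N.one_mem, (mul_one _).symm⟩)
    · exact Or.inl hx
  | one => exact Or.inl N.one_mem
  | mul x y _ _ hx hy =>
    rcases hx with hx | ⟨n, hn, rfl⟩ | ⟨n, hn, rfl⟩ <;> rcases hy with hy | ⟨m, hm, rfl⟩ | ⟨m, hm, rfl⟩
    · exact Or.inl (N.mul_mem hx hy)
    · obtain ⟨k, hk, e⟩ := hcomm x hx
      exact Or.inr (Or.inl ⟨k * m, N.mul_mem hk hm, by rw [← mul_assoc, e, mul_assoc]⟩)
    · obtain ⟨k, hk, e⟩ := hcomm' x hx
      exact Or.inr (Or.inr ⟨k * m, N.mul_mem hk hm, by rw [← mul_assoc, e, mul_assoc]⟩)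
    · exact Or.inr (Or.inl ⟨n * y, N.mul_mem hn hy, by rw [mul_assoc]⟩)
    · obtain ⟨k, hk, e⟩ := hcomm n hn
      refine Or.inr (Or.inr ⟨k * m, N.mul_mem hk hm, ?_⟩)
      calc a * n * (a * m) = a * (n * a) * m := by group
        _ = a * (a * k) * m := by rw [e]
        _ = (a * a) * (k * m) := by group
        _ = a⁻¹ * (k * m) := by rw [haa]
    · obtain ⟨k, hk, e⟩ := hcomm' n hn
      refine Or.inl ?_
      have : a * n * (a⁻¹ * m) = k * m := by
        calc a * n * (a⁻¹ * m) = a * (n * a⁻¹) * m := by group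
          _ = a * (a⁻¹ * k) * m := by rw [e]
          _ = k * m := by group
      rw [this]
      exact N.mul_mem hk hm
    · exact Or.inr (Or.inr ⟨n * y, N.mul_mem hn hy, by rw [mul_assoc]⟩)
    · obtain ⟨k, hk, e⟩ := hcomm n hn
      refine Or.inl ?_
      have : a⁻¹ * n * (a * m) = k * m := by
        calc a⁻¹ * n * (a * m) = a⁻¹ * (n * a) * m := by group
          _ = a⁻¹ * (a * k) * m := by rw [e]
          _ = k * m := by group
      rw [this]
      exact N.mul_mem hk hm
    · obtain ⟨k, hk, e⟩ := hcomm' n hn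
      refine Or.inr (Or.inl ⟨k * m, N.mul_mem hk hm, ?_⟩)
      calc a⁻¹ * n * (a⁻¹ * m) = a⁻¹ * (n * a⁻¹) * m := by group
        _ = a⁻¹ * (a⁻¹ * k) * m := by rw [e]
        _ = (a⁻¹ * a⁻¹) * (k * m) := by group
        _ = a * (k * m) := by rw [hii]
  | inv x _ hx =>
    rcases hx with hx | ⟨n, hn, rfl⟩ | ⟨n, hn, rfl⟩
    · exact Or.inl (N.inv_mem hx)
    · obtain ⟨k, hk, e⟩ := hcomm' n⁻¹ (N.inv_mem hn)
      exact Or.inr (Or.inr ⟨k, hk, by rw [mul_inv_rev, e]⟩)
    · obtain ⟨k, hk, e⟩ := hcomm n⁻¹ (N.inv_mem hn)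
      exact Or.inr (Or.inl ⟨k, hk, by rw [mul_inv_rev, inv_inv, e]⟩)

theorem Pk_norm {k : ℕ} (hk : k < 9) {n : G} (hn : n ∈ Pk (k + 1)) : Lg k * n * (Lg k)⁻¹ ∈ Pk (k + 1) := by
  induction hn using Subgroup.closure_induction with
  | mem x hx =>
    obtain ⟨j, ⟨h1, h2⟩, rfl⟩ := hx
    obtain ⟨e, hl, -⟩ := pc_rel (k := k) (j := j) (by omega) h2
    rw [e]
    exact xL_mem (by rw [hl]; omega)
  | one =>
    rw [mul_one, mul_inv_cancel]
    exact Subgroup.one_mem _
  | mul x y _ _ hx hy =>
    have e : Lg k * (x * y) * (Lg k)⁻¹ = (Lg k * x * (Lg k)⁻¹) * (Lg k * y * (Lg k)⁻¹) := by group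
    rw [e]
    exact Subgroup.mul_mem _ hx hy
  | inv x _ hx =>
    have e : Lg k * x⁻¹ * (Lg k)⁻¹ = (Lg k * x * (Lg k)⁻¹)⁻¹ := by group
    rw [e]
    exact Subgroup.inv_mem _ hx

theorem form (m : ℕ) : ∀ k, k + m = 9 → ∀ g ∈ Pk k, ∃ es : List ℕ, es.length = m ∧ (∀ e ∈ es, e < 3) ∧ g = xL k es := by
  induction m with
  | zero =>
    intro k hk g hg
    have h0 : Pk k = ⊥ := by
      unfold Pk
      have : Lg '' {j | k ≤ j ∧ j < 9} = ∅ := by
        rw [Set.image_eq_empty]
        ext j
        simp only [Set.mem_setOf_eq, Set.mem_empty_iff_false, iff_false, not_and, not_lt]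
        omega
      rw [this, Subgroup.closure_empty]
    rw [h0, Subgroup.mem_bot] at hg
    exact ⟨[], rfl, by simp, hg⟩
  | succ m ih =>
    intro k hk g hg
    have hk9 : k < 9 := by omega
    have hle : Pk k ≤ Subgroup.closure (insert (Lg k) (Pk (k + 1) : Set G)) := by
      apply (Subgroup.closure_le _).2
      rintro _ ⟨j, ⟨h1, h2⟩, rfl⟩
      rcases Nat.eq_or_lt_of_le h1 with rfl | h3
      · exact Subgroup.subset_closure (Set.mem_insert _ _)
      · exact Subgroup.subset_closure (Set.mem_insert_of_mem _ (Lg_mem h3 h2))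
    rcases mem_form _ _ (Lg_cube hk9) (fun n hn => Pk_norm hk9 hn) (hle hg) with h | ⟨n, hn, rfl⟩ | ⟨n, hn, rfl⟩
    · obtain ⟨es, h1, h2, rfl⟩ := ih (k + 1) (by omega) g h
      refine ⟨0 :: es, by simp [h1], ?_, ?_⟩
      · intro e he
        rcases List.mem_cons.mp he with rfl | he
        · norm_num
        · exact h2 e he
      · show _ = xE k 0 * xL (k + 1) es
        rw [xE_zero, one_mul]
    · obtain ⟨es, h1, h2, rfl⟩ := ih (k + 1) (by omega) n hn
      refine ⟨1 :: es, by simp [h1], ?_, rfl⟩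
      intro e he
      rcases List.mem_cons.mp he with rfl | he
      · norm_num
      · exact h2 e he
    · obtain ⟨es, h1, h2, rfl⟩ := ih (k + 1) (by omega) n hn
      refine ⟨2 :: es, by simp [h1], ?_, rfl⟩
      intro e he
      rcases List.mem_cons.mp he with rfl | he
      · norm_num
      · exact h2 e he

/-- The Sylow subgroup. -/
noncomputable abbrev PP : Subgroup G := Pk 0

theorem PP_cover {g : G} (hg : g ∈ PP) : ∃ n, n < 19683 ∧ g = Xn n := by
  obtain ⟨es, h1, h2, rfl⟩ := form 9 0 (by norm_num) g hg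
  obtain ⟨n, hn, hd⟩ := exists_dig 9 es h1 h2
  refine ⟨n, by simpa using hn, ?_⟩
  rw [Xn, hd]

theorem Xn_mem (n : ℕ) : Xn n ∈ PP := xL_mem (by rw [dig_length])

/-- The code of an element. -/
def codeN (n : ℕ) : ℕ := evX n 0 + 702 * (evX n 54 + 702 * evX n 1)

/-- The sorted list. -/
def piF (i : ℕ) : ℕ := get 15 32767 piT i

/-- The length of a chunk. -/
def lenS (q : ℕ) : ℕ := bif Nat.blt q 19 then 1024 else 226

/-- The check of a chunk. -/
def sortC (q : ℕ) : Bool := allB (fun i => Nat.blt (codeN (piF (q * 1024 + i))) (codeN (piF (q * 1024 + i + 1)))) (lenS q)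

theorem sortC0 : sortC 0 = true := by decide +kernel
theorem sortC1 : sortC 1 = true := by decide +kernel
theorem sortC2 : sortC 2 = true := by decide +kernel
theorem sortC3 : sortC 3 = true := by decide +kernel
theorem sortC4 : sortC 4 = true := by decide +kernel
theorem sortC5 : sortC 5 = true := by decide +kernel
theorem sortC6 : sortC 6 = true := by decide +kernel
theorem sortC7 : sortC 7 = true := by decide +kernel
theorem sortC8 : sortC 8 = true := by decide +kernel
theorem sortC9 : sortC 9 = true := by decide +kernel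
theorem sortC10 : sortC 10 = true := by decide +kernel
theorem sortC11 : sortC 11 = true := by decide +kernel
theorem sortC12 : sortC 12 = true := by decide +kernel
theorem sortC13 : sortC 13 = true := by decide +kernel
theorem sortC14 : sortC 14 = true := by decide +kernel
theorem sortC15 : sortC 15 = true := by decide +kernel
theorem sortC16 : sortC 16 = true := by decide +kernel
theorem sortC17 : sortC 17 = true := by decide +kernel
theorem sortC18 : sortC 18 = true := by decide +kernel
theorem sortC19 : sortC 19 = true := by decide +kernel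

theorem sort_chunks (q : ℕ) (hq : q < 20) : sortC q = true := by
  interval_cases q
  exacts [sortC0, sortC1, sortC2, sortC3, sortC4, sortC5, sortC6, sortC7, sortC8, sortC9, sortC10, sortC11, sortC12,
    sortC13, sortC14, sortC15, sortC16, sortC17, sortC18, sortC19]

theorem sort_chk : allB (fun i => Nat.blt (codeN (piF i)) (codeN (piF (i + 1)))) 19682 = true := by
  rw [allB_iff]
  intro n hn
  have hq : n / 1024 < 20 := by omega
  have hr : n % 1024 < lenS (n / 1024) := by
    unfold lenS
    by_cases h : n / 1024 < 19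
    · have e : Nat.blt (n / 1024) 19 = true := by simpa [Nat.blt_eq] using h
      rw [e]
      show n % 1024 < 1024
      omega
    · have e : Nat.blt (n / 1024) 19 = false := by
        cases h' : Nat.blt (n / 1024) 19 with
        | false => rfl
        | true =>
          exact absurd (by simpa [Nat.blt_eq] using h') h
      rw [e]
      show n % 1024 < 226
      omega
  have h := (allB_iff _ _).mp (sort_chunks _ hq) _ hr
  have e : n / 1024 * 1024 + n % 1024 = n := by omega
  simp only [e] at h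
  exact h

theorem code_mono {i j : ℕ} (hij : i < j) (hj : j < 19683) : codeN (piF i) < codeN (piF j) := by
  induction j with
  | zero => omega
  | succ j ih =>
    have h1 := (allB_iff _ _).mp sort_chk j (by omega)
    have h2 : codeN (piF j) < codeN (piF (j + 1)) := by simpa [Nat.blt_eq] using h1
    rcases Nat.lt_succ_iff_lt_or_eq.mp hij with h | h
    · exact lt_trans (ih h (by omega)) h2
    · subst h
      exact h2

theorem code_eq {a b : ℕ} (h : Xn a = Xn b) : codeN a = codeN b := by
  have e : ∀ y : Fin 702, evX a y = evX b y := by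
    intro y
    rw [← rho_Xn_fast, ← rho_Xn_fast, h]
  have e0 := e ⟨0, by norm_num⟩
  have e1 := e ⟨54, by norm_num⟩
  have e2 := e ⟨1, by norm_num⟩
  simp only at e0 e1 e2
  unfold codeN
  rw [e0, e1, e2]

/-- The elements, by number. -/
noncomputable def fN (n : ℕ) : PP := ⟨Xn n, Xn_mem n⟩

theorem fN_val (n : ℕ) : ((fN n : PP) : G) = Xn n := rfl

theorem card_PP : Nat.card PP = 19683 := by
  apply le_antisymm
  · have hs : Function.Surjective (fun i : Fin 19683 => fN i) := by
      rintro ⟨g, hg⟩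
      obtain ⟨n, hn, rfl⟩ := PP_cover hg
      exact ⟨⟨n, hn⟩, rfl⟩
    have := Nat.card_le_card_of_surjective _ hs
    rwa [Nat.card_fin] at this
  · have hi : Function.Injective (fun i : Fin 19683 => fN (piF i)) := by
      intro i j hij
      have hij' : fN (piF i) = fN (piF j) := hij
      have h1 : Xn (piF i) = Xn (piF j) := by
        rw [← fN_val, ← fN_val, hij']
      have h2 := code_eq h1
      rcases lt_trichotomy (i : ℕ) j with h | h | h
      · exact absurd h2 (ne_of_lt (code_mono h j.2))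
      · exact Fin.ext h
      · exact absurd h2.symm (ne_of_lt (code_mono h i.2))
    have := Nat.card_le_card_of_injective _ hi
    rwa [Nat.card_fin] at this

/-! ### The covering -/

/-- A representative. -/
noncomputable def rootE (i : ℕ) : G := Xn (rootsL.getD i 0)

theorem rho_gC {c : ℕ} (hc : c < 24) (y : Fin 702) : ((rho (gC c) y : Fin 702) : ℕ) = actC c y :=
  rho_xD (by omega) (by omega) y

theorem flip_lt {c : ℕ} (hc : c < 24) : flipC c < 24 := by
  unfold flipC
  rcases Nat.mod_two_eq_zero_or_one c with h | h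
  · have e : Nat.beq (c % 2) 0 = true := by rw [h]; rfl
    rw [e]
    simp only [cond_true]
    omega
  · have e : Nat.beq (c % 2) 0 = false := by rw [h]; rfl
    rw [e]
    simp only [cond_false]
    omega

/-- The contents of the check of an element with a parent. -/
theorem child_spec {e n : ℕ} (hc : chkChild e n = true) : aE e < 24 ∧ pE e < 19683 ∧ rankOf (entry (pE e)) < rE e ∧
    (kindE (entry (pE e)) = 1 ∨ kindE (entry (pE e)) = 2) ∧
    ∀ y : Fin 702, y.val ∈ baseL → actC (aE e) (evX n (actC (flipC (aE e)) y)) = evX (pE e) y := by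
  unfold chkChild at hc
  simp only [Bool.and_eq_true, Nat.blt_eq, Bool.or_eq_true] at hc
  obtain ⟨⟨⟨⟨⟨⟨⟨⟨⟨⟨h1, h2⟩, h3⟩, h4⟩, p0⟩, p1⟩, p2⟩, p3⟩, p9⟩, p54⟩, p216⟩ := hc
  refine ⟨h1, h2, h3, ?_, ?_⟩
  · rcases h4 with h | h
    · exact Or.inl (Nat.eq_of_beq_eq_true h)
    · exact Or.inr (Nat.eq_of_beq_eq_true h)
  · intro y hy
    have hb : baseL = [0, 1, 2, 3, 9, 54, 216] := rfl
    rw [hb] at hy
    simp only [List.mem_cons, List.not_mem_nil, or_false] at hy
    have hp : ∀ a, chkPt (aE e) n (pE e) a = true → actC (aE e) (evX n (actC (flipC (aE e)) a)) = evX (pE e) a :=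
      fun a h => Nat.eq_of_beq_eq_true h
    rcases hy with h | h | h | h | h | h | h <;> rw [h]
    · exact hp _ p0
    · exact hp _ p1
    · exact hp _ p2
    · exact hp _ p3
    · exact hp _ p9
    · exact hp _ p54
    · exact hp _ p216

theorem kind_lt (e : ℕ) : kindE e = 0 ∨ kindE e = 1 ∨ kindE e = 2 ∨ kindE e = 3 := by
  have h : e % 4 < 4 := Nat.mod_lt _ (by norm_num)
  show e % 4 = 0 ∨ e % 4 = 1 ∨ e % 4 = 2 ∨ e % 4 = 3
  omega

theorem chk_k0 {n : ℕ} (h : kindE (entry n) = 0) (hc : chk n = true) :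
    baseL.getD (aE (entry n)) 0 < 702 ∧
      Nat.beq (evX n (evX n (evX n (baseL.getD (aE (entry n)) 0)))) (baseL.getD (aE (entry n)) 0) = false := by
  dsimp only [chk] at hc
  have e0 : Nat.beq (kindE (entry n)) 0 = true := by rw [h]; rfl
  rw [e0] at hc
  simp only [cond_true, Bool.and_eq_true, Nat.blt_eq, Bool.not_eq_true'] at hc
  exact hc

theorem chk_k1 {n : ℕ} (h : kindE (entry n) = 1) (hc : chk n = true) :
    rootsL.getD (aE (entry n)) 0 = n ∧ aE (entry n) < 7 := by
  dsimp only [chk] at hc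
  have e0 : Nat.beq (kindE (entry n)) 0 = false := by rw [h]; rfl
  have e1 : Nat.beq (kindE (entry n)) 1 = true := by rw [h]; rfl
  rw [e0, e1] at hc
  simp only [cond_false, cond_true, Bool.and_eq_true, Nat.blt_eq] at hc
  exact ⟨Nat.eq_of_beq_eq_true hc.1, hc.2⟩

theorem chk_k2 {n : ℕ} (h : kindE (entry n) = 2) (hc : chk n = true) : chkChild (entry n) n = true := by
  dsimp only [chk] at hc
  have e0 : Nat.beq (kindE (entry n)) 0 = false := by rw [h]; rfl
  have e1 : Nat.beq (kindE (entry n)) 1 = false := by rw [h]; rfl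
  have e2 : Nat.beq (kindE (entry n)) 2 = true := by rw [h]; rfl
  rw [e0, e1, e2] at hc
  simpa only [cond_false, cond_true] using hc

theorem chk_k3 {n : ℕ} (h : kindE (entry n) = 3) (hc : chk n = true) : n = 0 := by
  dsimp only [chk] at hc
  have e0 : Nat.beq (kindE (entry n)) 0 = false := by rw [h]; rfl
  have e1 : Nat.beq (kindE (entry n)) 1 = false := by rw [h]; rfl
  have e2 : Nat.beq (kindE (entry n)) 2 = false := by rw [h]; rfl
  rw [e0, e1, e2] at hc
  simp only [cond_false] at hc
  exact Nat.eq_of_beq_eq_true hc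

theorem rooted (r : ℕ) : ∀ n, n < 19683 → rankOf (entry n) ≤ r →
    (kindE (entry n) = 1 ∨ kindE (entry n) = 2) → ∃ i, i < 7 ∧ ∃ g : G, g * Xn n * g⁻¹ = rootE i := by
  induction r using Nat.strong_induction_on with
  | _ r ih =>
    intro n hn hr hk
    have hc := (allB_iff _ _).mp chk_all n hn
    rcases hk with hk | hk
    · obtain ⟨h1, h2⟩ := chk_k1 hk hc
      refine ⟨_, h2, 1, ?_⟩
      rw [one_mul, inv_one, mul_one, rootE, h1]
    · obtain ⟨h1, h2, h3, h4, h5⟩ := child_spec (chk_k2 hk hc)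
      have e1 : Nat.beq (kindE (entry n)) 1 = false := by rw [hk]; rfl
      have hrank : rankOf (entry n) = rE (entry n) := by
        unfold rankOf
        rw [e1]
        rfl
      obtain ⟨i, hi, g, hg⟩ := ih (rankOf (entry (pE (entry n)))) (by omega) _ h2 le_rfl h4
      refine ⟨i, hi, g * gC (aE (entry n)), ?_⟩
      rw [← hg]
      have key : gC (aE (entry n)) * Xn n * (gC (aE (entry n)))⁻¹ = Xn (pE (entry n)) := by
        apply G_ext
        intro y hy
        apply Fin.ext
        rw [map_mul, map_mul, Equiv.Perm.mul_apply, Equiv.Perm.mul_apply, gC_inv, rho_gC h1, rho_Xn_fast,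
          rho_gC (flip_lt h1), rho_Xn_fast]
        exact h5 y hy
      rw [← key]
      group

theorem Xn_zero : Xn 0 = 1 := by
  have h : dig 9 0 = [0, 0, 0, 0, 0, 0, 0, 0, 0] := rfl
  rw [Xn, h]
  simp [xL, xE_zero]

theorem cover {x : G} (hx : x ∈ PP) (h3 : x * x * x = 1) (hne : x ≠ 1) :
    ∃ i, i < 7 ∧ ∃ g : G, g * x * g⁻¹ = rootE i := by
  obtain ⟨n, hn, rfl⟩ := PP_cover hx
  have hc := (allB_iff _ _).mp chk_all n hn
  rcases kind_lt (entry n) with hk | hk | hk | hk
  · exfalso
    obtain ⟨h1, h2⟩ := chk_k0 hk hc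
    have h4 := congrArg (fun g : G => ((rho g ⟨_, h1⟩ : Fin 702) : ℕ)) h3
    simp only [map_mul, Equiv.Perm.mul_apply, map_one, Equiv.Perm.one_apply] at h4
    rw [rho_Xn_fast, rho_Xn_fast, rho_Xn_fast] at h4
    rw [h4] at h2
    simp at h2
  · exact rooted _ n hn le_rfl (Or.inl hk)
  · exact rooted _ n hn le_rfl (Or.inr hk)
  · exfalso
    have h0 := chk_k3 hk hc
    subst h0
    exact hne Xn_zero

end Cfsg.Agent.Lib.Compute.O73Cl
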