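import Cfsg.Agent.S1686
import Cfsg.Agent.Lib.Compute.O73Cl.Data

/-!
# `Ω₇(3)`: generators and actions
-/

set_option autoImplicit false
set_option maxRecDepth 100000

namespace Cfsg.Agent.Lib.Compute.O73Cl

open Cfsg.Agent.Lib.Compute.PermCert Cfsg.Agent.Lib.Compute.LinOrbit Cfsg.Agent.Lib.Compute.O73
open Cfsg.Agent.Lib.Compute.ToddCoxeterCore Cfsg.Agent.Lib.Compute.ToddCoxeterPresented
open Cfsg.Agent.Lib.Compute.TC

/-- The group. -/
abbrev G : Type := ↥(Cfsg.Omega (ZMod 3) QF)

/-- The generators. -/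
noncomputable def ge (j : ℕ) : G := ⟨Cfsg.Agent.S1686.el j, Cfsg.Agent.S1686.el_mem j⟩

theorem ge_val (j : ℕ) : (((ge j : G) : ↥OG) : GLI) = elU j := rfl

theorem ge_sq (j : ℕ) : ge j * ge j = 1 :=
  Subtype.ext (Subtype.ext (elU_mul_self j))

/-- The isomorphism with the presented group. -/
noncomputable def E0 : PresentedGroup Fi22U1.RR ≃* G :=
  MulEquiv.ofBijective Cfsg.Agent.S1686.tau2 Cfsg.Agent.S1686.tau2_bij

theorem E0_of (j : Fin 8) : E0 (PresentedGroup.of j) = ge j := by
  apply Subtype.ext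
  apply Subtype.ext
  exact tau_of j

theorem ge_ge {j : ℕ} (h : ¬ j < 8) : ge j = 1 :=
  Subtype.ext (Subtype.ext (elU_ge h))

theorem mem_closure_ge (g : G) : g ∈ Subgroup.closure (Set.range ge) := by
  obtain ⟨x, rfl⟩ := E0.surjective g
  have hx : x ∈ Subgroup.closure (Set.range (PresentedGroup.of : Fin 8 → PresentedGroup Fi22U1.RR)) := by
    rw [PresentedGroup.closure_range_of]
    trivial
  induction hx using Subgroup.closure_induction with
  | mem y hy =>
    obtain ⟨b, rfl⟩ := hy
    rw [E0_of]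
    exact Subgroup.subset_closure ⟨_, rfl⟩
  | one =>
    rw [map_one]
    exact Subgroup.one_mem _
  | mul a b _ _ ha hb =>
    rw [map_mul]
    exact Subgroup.mul_mem _ ha hb
  | inv a _ ha =>
    rw [map_inv]
    exact Subgroup.inv_mem _ ha

/-- A family of involutions with the relators gives a homomorphism. -/
theorem exists_hom {H : Type} [Group H] (e : ℕ → H) (hs : ∀ j, j < 8 → e j * e j = 1)
    (hr : ∀ a ∈ Fi22U1.relsL, wordEl e a = 1) : ∃ π : G →* H, ∀ j, j < 8 → π (ge j) = e j := by
  let f : Fin 8 → H := fun j => e j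
  have hlet : ∀ p : Fin 8 × Bool, e (letterOf Fi22U1.D.lets p) = FreeGroup.lift f (eltF p) := by
    rintro ⟨a, b⟩
    have h1 : letterOf Fi22U1.D.lets (a, b) = a := by
      revert a b; decide
    rw [h1]
    cases b with
    | true =>
      simp only [eltF, if_true, FreeGroup.lift_apply_of]
      rfl
    | false =>
      simp only [eltF, Bool.false_eq_true, if_false, map_inv, FreeGroup.lift_apply_of]
      exact eq_inv_of_mul_eq_one_left (hs a a.2)
  have hlift : ∀ r ∈ Fi22U1.RR, FreeGroup.lift f r = 1 := by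
    intro r hr'
    rw [← wordEl_toLetters' Fi22U1.D.lets _ e hlet r]
    rcases Fi22U1.small.hrels2 r ((Fi22U1.hR r).1 hr') with h | h
    · exact hr _ h
    · exact wordEl_of_rot e (k := 1) (hr _ h)
  refine ⟨(PresentedGroup.toGroup hlift).comp E0.symm.toMonoidHom, ?_⟩
  intro j hj
  have h1 : E0.symm (ge j) = PresentedGroup.of (⟨j, hj⟩ : Fin 8) := by
    rw [MulEquiv.symm_apply_eq, E0_of]
  show PresentedGroup.toGroup hlift (E0.symm (ge j)) = e j
  rw [h1, PresentedGroup.toGroup.of hlift]

/-- Words act letter by letter. -/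
theorem wordEl_apply {N m : ℕ} {el : ℕ → Equiv.Perm (Fin N)} {ev : ℕ → ℕ → ℕ}
    (hev : ∀ j, j < m → ∀ i : Fin N, ((el j i : Fin N) : ℕ) = ev j i) (a : List ℕ) (ha : ∀ x ∈ a, x < m) (i : Fin N) :
    ((wordEl el a i : Fin N) : ℕ) = wordPt ev a i := by
  induction a generalizing i with
  | nil => rfl
  | cons x u ih =>
    rw [wordEl_cons]
    show ((wordEl el u (el x i) : Fin N) : ℕ) = wordPt ev u (ev x i)
    rw [ih (fun y hy => ha y (by simp [hy])), hev x (ha x (by simp)) i]

/-- Words under a homomorphism. -/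
theorem map_word {A B : Type} [Group A] [Group B] (φ : A →* B) (el : ℕ → A) (a : List ℕ) :
    φ (wordEl el a) = wordEl (fun j => φ (el j)) a := by
  induction a with
  | nil =>
    show φ 1 = 1
    exact map_one φ
  | cons x u ih => rw [wordEl_cons, wordEl_cons, map_mul, ih]

/-! ### The action on the vectors -/

theorem peOf_valid' {j : ℕ} : validB 10 1023 702 (peOf j) = true := peOf_valid j

theorem evP_eq (j : ℕ) (i : Fin 702) : ((elP j i : Fin 702) : ℕ) = evP j i := by
  show (permOf 10 1023 702 (peOf j) i : ℕ) = _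
  rw [permOf_apply (peOf_valid j)]
  rfl

theorem elP_sq_chk : allB (fun j => allB (fun y => Nat.beq (evP j (evP j y)) y) 702) 8 = true := by decide +kernel

theorem elP_sq {j : ℕ} (hj : j < 8) : elP j * elP j = 1 := by
  ext i
  show ((elP j (elP j i) : Fin 702) : ℕ) = i
  rw [evP_eq, evP_eq]
  exact Nat.eq_of_beq_eq_true ((allB_iff _ _).mp ((allB_iff _ _).mp elP_sq_chk j hj) i i.2)

theorem rels702 : allB (fun y => Fi22U1.relsL.all (fun a => Nat.beq (wordPt evP a y) y)) 702 = true := by decide +kernel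

theorem rel_P (a : List ℕ) (ha : a ∈ Fi22U1.relsL) : wordEl elP a = 1 := by
  ext i
  rw [wordEl_apply (m := 8) (ev := evP) (fun j _ i => evP_eq j i) a (rels_lt a ha) i]
  have h := (allB_iff _ _).mp rels702 i i.2
  exact Nat.eq_of_beq_eq_true (List.all_eq_true.mp h a ha)

theorem exists_rho : ∃ π : G →* Equiv.Perm (Fin 702), ∀ j, j < 8 → π (ge j) = elP j :=
  exists_hom elP (fun _ hj => elP_sq hj) rel_P

/-- The action on the vectors. -/
noncomputable def rho : G →* Equiv.Perm (Fin 702) := exists_rho.choose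

theorem rho_ge {j : ℕ} (hj : j < 8) : rho (ge j) = elP j := exists_rho.choose_spec j hj

/-- The matrix of an element. -/
def mat (g : G) : Matrix I7 I7 (ZMod 3) := ((g : ↥OG) : GLI).1

theorem mat_mul (g h : G) : mat (g * h) = mat g * mat h := rfl

theorem rho_act (g : G) (y : Fin 702) : Matrix.mulVec (mat g) (rpV y) = rpV (rho g y) := by
  induction mem_closure_ge g using Subgroup.closure_induction generalizing y with
  | mem x hx =>
    obtain ⟨j, rfl⟩ := hx
    by_cases hj : j < 8
    · rw [rho_ge hj]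
      exact act_P j y
    · rw [ge_ge hj, map_one]
      show Matrix.mulVec (1 : Matrix I7 I7 (ZMod 3)) _ = _
      rw [Matrix.one_mulVec]
      rfl
  | one =>
    rw [map_one]
    show Matrix.mulVec (1 : Matrix I7 I7 (ZMod 3)) _ = _
    rw [Matrix.one_mulVec]
    rfl
  | mul a b _ _ ha hb =>
    rw [mat_mul, ← Matrix.mulVec_mulVec, hb, ha, map_mul]
    rfl
  | inv a _ ha =>
    have h1 : rho a (rho a⁻¹ y) = y := by
      rw [← Equiv.Perm.mul_apply, ← map_mul, mul_inv_cancel, map_one]
      rfl
    have h2 := ha (rho a⁻¹ y)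
    rw [h1] at h2
    rw [← h2, Matrix.mulVec_mulVec, ← mat_mul, inv_mul_cancel]
    show Matrix.mulVec (1 : Matrix I7 I7 (ZMod 3)) _ = _
    rw [Matrix.one_mulVec]

/-- The base, as a function. -/
theorem G_ext {g h : G} (H : ∀ y : Fin 702, y.val ∈ baseL → rho g y = rho h y) : g = h := by
  have h1 : mat g * matC bc = mat h * matC bc := by
    ext i j
    have hb : baseL.getD (pos j) 0 ∈ baseL := by
      have h : ∀ j : I7, baseL.getD (pos j) 0 ∈ baseL := by decide +kernel
      exact h j
    have e1 := rho_act g ⟨_, base_lt j⟩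
    have e2 := rho_act h ⟨_, base_lt j⟩
    rw [H ⟨_, base_lt j⟩ hb, ← e2] at e1
    have e3 := congrFun e1 i
    have hc := bc_col j
    have e4 : rpV (baseL.getD (pos j) 0) = fun i => matC bc i j := hc.symm
    simp only at e3
    rw [e4] at e3
    exact e3
  have h2 : mat g = mat h := by
    calc mat g = mat g * (matC bc * matC bi) := by rw [bc_inv, mul_one]
      _ = mat h * (matC bc * matC bi) := by rw [← mul_assoc, h1, mul_assoc]
      _ = mat h := by rw [bc_inv, mul_one]
  apply Subtype.ext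
  apply Subtype.ext
  exact Units.ext h2

/-! ### The action on the forms -/

/-- The label on the forms. -/
def evQ' (j y : ℕ) : ℕ := get 11 2047 (qEs.getD j qId).f y

theorem qEs_valid : (qId :: qEs).all (validB 11 2047 1080) = true := by decide +kernel

theorem q_valid (j : ℕ) : validB 11 2047 1080 (qEs.getD j qId) = true := by
  have h := List.all_eq_true.mp qEs_valid
  by_cases hj : j < qEs.length
  · rw [List.getD_eq_getElem _ _ hj]
    exact h _ (List.mem_cons_of_mem _ (List.getElem_mem hj))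
  · rw [List.getD_eq_default _ _ (by omega)]
    exact h _ List.mem_cons_self

/-- The permutations of the forms. -/
def elQ (j : ℕ) : Equiv.Perm (Fin 1080) := permOf 11 2047 1080 (qEs.getD j qId)

theorem evQ'_eq (j : ℕ) (i : Fin 1080) : ((elQ j i : Fin 1080) : ℕ) = evQ' j i :=
  permOf_apply (q_valid j) i

theorem elQ_sq_chk : allB (fun j => allB (fun y => Nat.beq (evQ' j (evQ' j y)) y) 1080) 8 = true := by decide +kernel

theorem elQ_sq {j : ℕ} (hj : j < 8) : elQ j * elQ j = 1 := by
  ext i
  show ((elQ j (elQ j i) : Fin 1080) : ℕ) = i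
  rw [evQ'_eq, evQ'_eq]
  exact Nat.eq_of_beq_eq_true ((allB_iff _ _).mp ((allB_iff _ _).mp elQ_sq_chk j hj) i i.2)

theorem rels1080 : allB (fun y => Fi22U1.relsL.all (fun a => Nat.beq (wordPt evQ' a y) y)) 1080 = true := by decide +kernel

theorem rel_Q (a : List ℕ) (ha : a ∈ Fi22U1.relsL) : wordEl elQ a = 1 := by
  ext i
  rw [wordEl_apply (m := 8) (ev := evQ') (fun j _ i => evQ'_eq j i) a (rels_lt a ha) i]
  have h := (allB_iff _ _).mp rels1080 i i.2
  exact Nat.eq_of_beq_eq_true (List.all_eq_true.mp h a ha)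

theorem exists_pi : ∃ π : G →* Equiv.Perm (Fin 1080), ∀ j, j < 8 → π (ge j) = elQ j :=
  exists_hom elQ (fun _ hj => elQ_sq hj) rel_Q

/-- The action on the forms. -/
noncomputable def pi' : G →* Equiv.Perm (Fin 1080) := exists_pi.choose

theorem pi_ge {j : ℕ} (hj : j < 8) : pi' (ge j) = elQ j := exists_pi.choose_spec j hj

end Cfsg.Agent.Lib.Compute.O73Cl
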